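import Cfsg.Agent.H701.F43.Cent
import Cfsg.Agent.TitsThree.KExcBase

/-!
# The commutators in `V_J` for `F₄` (S2465, block E of `F₄(3)`)

`J = {0, 1, 2}` (type `C₃`); `idxV` : the numbers of the roots of `V_J`, `47` is the highest root `θ`.

* `eps b c` : the table, `0` if `b + c` is not `θ`;
* `com` : `⁅x_b(s), x_c(t)⁆ = x_θ(eps b c · s t)` for all `b`, `c` in `idxV`;
* `eps3`, `com3` : the same over `ZMod 3`, `eps3 b c = ± 1`.
-/

set_option autoImplicit false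
set_option linter.unusedSectionVars false

namespace Cfsg.Agent.H194.F43

open Cfsg.Lie Cfsg.Agent.ChevalleyStructure Cfsg.Agent.ChevalleyStructure.Elts
  Cfsg.Agent.ChevalleyStructure.RootVec
open Cfsg.Agent.Nodes.RGDChev Cfsg.Agent.KFacts.RgdChevCoord
open Cfsg.Agent.H701.F43.Cent
open scoped commutatorElement

universe u

/-- the table of the commutators in `V_J` -/
def eps : ℕ → ℕ → ℤ
  | 24, 46 => 1
  | 46, 24 => -1
  | 26, 45 => 1
  | 45, 26 => -1
  | 29, 44 => 2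
  | 44, 29 => -2
  | 31, 43 => -1
  | 43, 31 => 1
  | 32, 42 => 1
  | 42, 32 => -1
  | 36, 40 => 2
  | 40, 36 => -2
  | 38, 39 => -2
  | 39, 38 => 2
  | _, _ => 0

theorem tab_eps : ∀ b ∈ idxV, ∀ c ∈ idxV, c ≠ chevF4.neg b ∧
    (chevF4.commTerms b c = [] ∧ eps b c = 0 ∨ c ≠ b ∧ b ≠ 47 ∧ c ≠ 47 ∧ chevF4.commTerms b c = [(47, eps b c, 1, 1)]) := by
  decide +kernel

section

variable {F : Type u} [Field F]

theorem xG_zero' (r : ℕ) : xG (F := F) hF.inList r 0 = 1 := by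
  have h := xG_add (F := F) hF.inList r 0 0
  rw [add_zero] at h
  exact mul_eq_left.1 h

theorem com_nil {b c : ℕ} (hb : b ∈ idxV) (hc : c ∈ idxV) (h : chevF4.commTerms b c = []) (s t : F) :
    xG hF.inList b s * xG hF.inList c t = xG hF.inList c t * xG hF.inList b s := by
  by_cases hbc : c = b
  · subst hbc
    exact Cfsg.Agent.TitsThree.KExcBase.comm_self hF.inList _ _ _
  · exact Cfsg.Agent.TitsThree.KExcBase.comm_nil hF.inList (lt_idxV b hb) (lt_idxV c hc) hbc (tab_eps b hb c hc).1 h s t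

theorem tab_47 : ∀ b ∈ idxV, chevF4.commTerms b 47 = [] := by decide +kernel

theorem mem_47 : 47 ∈ idxV := by decide

/-- **The commutators, as elements of `GL`.** -/
theorem com_xG {b c : ℕ} (hb : b ∈ idxV) (hc : c ∈ idxV) (s t : F) :
    ⁅xG hF.inList b s, xG hF.inList c t⁆ = xG hF.inList 47 ((eps b c : F) * s * t) := by
  rcases (tab_eps b hb c hc).2 with ⟨h1, h2⟩ | ⟨h1, -, -, h2⟩
  · rw [h2, Int.cast_zero, zero_mul, zero_mul, xG_zero']
    exact commutatorElement_eq_one_iff_mul_comm.2 (com_nil hb hc h1 s t)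
  · exact Cfsg.Agent.TitsThree.KExcBase.comm_one hF.inList (lt_idxV b hb) (lt_idxV c hc) h1 (tab_eps b hb c hc).1 h2
      (fun s t => com_nil hb mem_47 (tab_47 b hb) s t) (fun s t => com_nil hc mem_47 (tab_47 c hc) s t) s t

/-- **The commutators in `V_J`.** -/
theorem com {b c : ℕ} (hb : b ∈ idxV) (hc : c ∈ idxV) (s t : F) :
    ⁅xc hF (vec chevF4 4 b) s, xc hF (vec chevF4 4 c) t⁆ = xc hF (vec chevF4 4 47) ((eps b c : F) * s * t) := by
  apply Subtype.ext
  have h := com_xG (F := F) hb hc s t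
  rw [commutatorElement_def] at h ⊢
  rw [Subgroup.coe_mul, Subgroup.coe_mul, Subgroup.coe_mul, Subgroup.coe_inv, Subgroup.coe_inv,
    coe_xc hF (lt_idxV b hb), coe_xc hF (lt_idxV c hc), coe_xc hF (lt_idxV 47 mem_47)]
  exact h

/-- the other pairs commute -/
theorem com_of_zero {b c : ℕ} (hb : b ∈ idxV) (hc : c ∈ idxV) (h : eps b c = 0) (s t : F) :
    xc hF (vec chevF4 4 b) s * xc hF (vec chevF4 4 c) t = xc hF (vec chevF4 4 c) t * xc hF (vec chevF4 4 b) s := by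
  rw [← commutatorElement_eq_one_iff_mul_comm, com hb hc, h, Int.cast_zero, zero_mul, zero_mul]
  apply Subtype.ext
  rw [coe_xc hF (lt_idxV 47 mem_47), xG_zero']
  rfl

/-- `x_b(s) x_c(t) = x_θ(eps s t) x_c(t) x_b(s)` -/
theorem mul_com {b c : ℕ} (hb : b ∈ idxV) (hc : c ∈ idxV) (s t : F) :
    xc hF (vec chevF4 4 b) s * xc hF (vec chevF4 4 c) t =
      xc hF (vec chevF4 4 47) ((eps b c : F) * s * t) * (xc hF (vec chevF4 4 c) t * xc hF (vec chevF4 4 b) s) := by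
  rw [← com hb hc, commutatorElement_def]
  group

end

/-! ### `ZMod 3` -/

/-- the table over `ZMod 3` -/
def eps3 : ℕ → ℕ → ZMod 3
  | 24, 46 => 1
  | 46, 24 => -1
  | 26, 45 => 1
  | 45, 26 => -1
  | 29, 44 => -1
  | 44, 29 => 1
  | 31, 43 => -1
  | 43, 31 => 1
  | 32, 42 => 1
  | 42, 32 => -1
  | 36, 40 => -1
  | 40, 36 => 1
  | 38, 39 => 1
  | 39, 38 => -1
  | _, _ => 0

theorem cast_eps : ∀ b ∈ idxV, ∀ c ∈ idxV, ((eps b c : ℤ) : ZMod 3) = eps3 b c := by decide +kernel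

/-- **The commutators in `V_J` over `ZMod 3`.** -/
theorem com3 {b c : ℕ} (hb : b ∈ idxV) (hc : c ∈ idxV) (s t : ZMod 3) :
    ⁅xc hF (vec chevF4 4 b) s, xc hF (vec chevF4 4 c) t⁆ = xc hF (vec chevF4 4 47) (eps3 b c * s * t) := by
  rw [com hb hc, cast_eps b hb c hc]

end Cfsg.Agent.H194.F43
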